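import Mathlib
import Cfsg.Prelude.Def_Characters
import Cfsg.Prelude.Def_Blocks
import Cfsg.Agent.Lib.Helper74.JordanB

/-!
# Brauer's bound `p < 6 ^ (g₀ - 1)` for simple groups of order `p ^ a * q ^ b * g₀` (S4484)

Interface file: the packages (closed propositions) into which the proof is cut.
`rt`, `ev`, `proj` are the roots of unity and spectral projections of `Lib.Helper74.JordanA`.
-/

set_option autoImplicit false

open scoped Matrix ComplexConjugate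

namespace Cfsg.Agent.Lib.Helper95.BRA

open Cfsg Cfsg.Agent.Lib.Helper74.Jordan

universe u

/-- squared euclidean norm of a complex vector -/
noncomputable def nsq {n : ℕ} (w : Fin n → ℂ) : ℝ := ∑ i, Complex.normSq (w i)

/-- `ev N j₀` is an eigenvalue of `A` and every eigenvalue of `A` is within 60 degrees of it. -/
def Sharp {n : ℕ} (A : Matrix (Fin n) (Fin n) ℂ) (N j₀ : ℕ) : Prop :=
  j₀ < N ∧ proj A N j₀ ≠ 0 ∧ ∀ j < N, proj A N j ≠ 0 → 1 / 2 < (ev N j * conj (ev N j₀)).re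

/-- [C1] group-theoretic preliminaries: `G` is nonabelian and has an element `z` of order `p`
(in the centre of a Sylow `p`-subgroup) whose class size `K` is prime to `p`. -/
def PkgC1 : Prop := ∀ (G : Type u) [Group G] [Finite G] [IsSimpleGroup G] (p q a b g₀ : ℕ),
  p.Prime → q.Prime → p ≠ q → 0 < a → Nat.card G = p ^ a * q ^ b * g₀ → ¬ p ∣ g₀ → ¬ q ∣ g₀ →
  Nat.card G ≠ p →
  (¬ ∀ x y : G, x * y = y * x) ∧ ∃ z : G, orderOf z = p ∧ ∃ K : ℕ, ¬ p ∣ K ∧ K ∣ q ^ b * g₀ ∧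
    ∀ l : ℕ, ¬ p ∣ l → (Subgroup.centralizer ({z ^ l} : Set G)).index = K

/-- [C2] a nonprincipal character of degree prime to `q` in the principal `p`-block
(block orthogonality at `1` and a `p`-singular element). -/
def PkgC2 : Prop := ∀ (G : Type u) [Group G] [Finite G] (p q : ℕ), p.Prime → q.Prime →
  ∀ z : G, orderOf z = p → ∃ M : Ideal AlgInt, IsPModular p M ∧
    ∃ χ : G → ℂ, IsIrrCharacter G χ ∧ χ ≠ (fun _ => 1) ∧ ¬ q ∣ charDegree χ ∧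
      SameBlock M (fun _ : G => (1 : ℂ)) χ

/-- [C3a] `χ g * gcd (χ 1, |class of g|) / χ 1` is an algebraic integer. -/
def PkgC3a : Prop := ∀ (G : Type u) [Group G] [Finite G] (χ : G → ℂ), IsIrrCharacter G χ →
  ∀ g : G, IsIntegral ℤ (χ g *
    (Nat.gcd (charDegree χ) (Subgroup.centralizer ({g} : Set G)).index : ℂ) / (charDegree χ : ℂ))

/-- [Mult] eigenvalue multiplicities of an element of order `p`. -/
def PkgMult : Prop := ∀ (G : Type u) [Group G] [Finite G] (χ : G → ℂ), IsCharacter G χ →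
  ∀ (p : ℕ) (z : G), p.Prime → orderOf z = p →
    ∃ m : ℕ → ℕ, ∀ l : ℕ, χ (z ^ l) = ∑ i ∈ Finset.range p, (m i : ℂ) * rt p ^ (i * l)

/-- [C3c] if all the power sums divided by `D` are algebraic integers, then `D` divides the
differences of the multiplicities. -/
def PkgC3c : Prop := ∀ (p : ℕ), p.Prime → ∀ (m : ℕ → ℕ) (D : ℕ), 0 < D →
  (∀ l : ℕ, ¬ p ∣ l →
    IsIntegral ℤ ((∑ i ∈ Finset.range p, (m i : ℂ) * rt p ^ (i * l)) / (D : ℂ))) →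
  ∀ i < p, ∀ j < p, (D : ℤ) ∣ (m i : ℤ) - (m j : ℤ)

/-- [C3d] the arithmetic core: few distinct eigenvalues. -/
def PkgC3d : Prop := ∀ (p : ℕ) (M : Ideal AlgInt), IsPModular p M → ∀ (m : ℕ → ℕ) (D h K : ℕ),
  0 < D → 0 < h → ¬ p ∣ K → h ∣ K → (∑ i ∈ Finset.range p, m i = D * h) →
  (∀ i < p, ∀ j < p, (D : ℤ) ∣ (m i : ℤ) - (m j : ℤ)) →
  MemLocalIdeal M ((K : ℂ) -
    (K : ℂ) * (∑ i ∈ Finset.range p, (m i : ℂ) * rt p ^ i) / ((D * h : ℕ) : ℂ)) →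
  p ≤ h ∨ ((Finset.range p).filter (fun i => m i ≠ 0)).card ≤ h

/-- [Pig] pigeonhole with six sectors of 60 degrees. -/
def PkgPig : Prop := ∀ (p : ℕ) (I : Finset ℕ), (∀ i ∈ I, i < p) → ∀ i₁ ∈ I,
  6 ^ (I.card - 1) < p →
  ∃ d : ℕ, 0 < d ∧ d < p ∧ ∀ i ∈ I, 1 / 2 < (rt p ^ (i * d) * conj (rt p ^ (i₁ * d))).re

/-- [Mat] a unitary matrix representation affording a nonprincipal irreducible character has
no nonzero fixed vector. -/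
def PkgMat : Prop := ∀ (G : Type u) [Group G] [Finite G] (χ : G → ℂ), IsIrrCharacter G χ →
  χ ≠ (fun _ => 1) → ∃ (n : ℕ) (U : G →* Matrix (Fin n) (Fin n) ℂ), (∀ g, (U g)ᴴ * U g = 1) ∧
    (∀ g, (U g).trace = χ g) ∧ ∀ v : Fin n → ℂ, (∀ g, U g *ᵥ v = v) → v = 0

/-- [Bridge] from a power-sum decomposition of the traces to the spectral projections. -/
def PkgBridge : Prop := ∀ (G : Type u) [Group G] [Finite G] (n : ℕ)
  (U : G →* Matrix (Fin n) (Fin n) ℂ), (∀ g, (U g)ᴴ * U g = 1) →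
  ∀ (p : ℕ) (m : ℕ → ℕ) (w : ℕ → ℂ) (k : G), (∀ i < p, w i ^ Nat.card G = 1) →
  (∀ l : ℕ, (U (k ^ l)).trace = ∑ i ∈ Finset.range p, (m i : ℂ) * w i ^ l) →
  (∀ j < Nat.card G, proj (U k) (Nat.card G) j ≠ 0 →
    ∃ i < p, m i ≠ 0 ∧ w i = ev (Nat.card G) j) ∧
  (∀ i < p, m i ≠ 0 → ∃ j < Nat.card G, proj (U k) (Nat.card G) j ≠ 0 ∧ ev (Nat.card G) j = w i)

/-- [B1] the key inequality `‖P w‖ ‖w‖ ≤ |⟨w, A w⟩|` with its equality case. -/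
def PkgB1 : Prop := ∀ (n : ℕ) (A : Matrix (Fin n) (Fin n) ℂ) (N j₀ : ℕ), N ≠ 0 → A ^ N = 1 →
  Aᴴ * A = 1 → Sharp A N j₀ → ∀ w : Fin n → ℂ,
    nsq (proj A N j₀ *ᵥ w) * nsq w ≤ Complex.normSq (star w ⬝ᵥ (A *ᵥ w)) ∧
    (nsq (proj A N j₀ *ᵥ w) * nsq w = Complex.normSq (star w ⬝ᵥ (A *ᵥ w)) →
      proj A N j₀ *ᵥ w = w) ∧
    (w ≠ 0 → star w ⬝ᵥ (A *ᵥ w) ≠ 0)

/-- [B2] a projection commuting with its conjugate under a unitary `A` whose numerical range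
avoids `0` commutes with `A`. -/
def PkgB2 : Prop := ∀ (n : ℕ) (A Q : Matrix (Fin n) (Fin n) ℂ), Aᴴ * A = 1 → Qᴴ = Q →
  Q * Q = Q → (∀ w : Fin n → ℂ, w ≠ 0 → star w ⬝ᵥ (A *ᵥ w) ≠ 0) →
  Q * (A * Q * Aᴴ) = (A * Q * Aᴴ) * Q → A * Q = Q * A

/-- [B3] the trace inequality `tr (P Q) ≤ tr (Q (A Q Aᴴ))` with its equality case. -/
def PkgB3 : Prop := ∀ (n : ℕ) (A P Q : Matrix (Fin n) (Fin n) ℂ), Aᴴ * A = 1 → Pᴴ = P →
  P * P = P → Qᴴ = Q → Q * Q = Q →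
  (∀ w : Fin n → ℂ, nsq (P *ᵥ w) * nsq w ≤ Complex.normSq (star w ⬝ᵥ (A *ᵥ w))) →
  (∀ w : Fin n → ℂ, nsq (P *ᵥ w) * nsq w = Complex.normSq (star w ⬝ᵥ (A *ᵥ w)) → P *ᵥ w = w) →
  (P * Q).trace.re ≤ (Q * (A * Q * Aᴴ)).trace.re ∧
  ((P * Q).trace.re = (Q * (A * Q * Aᴴ)).trace.re → P * Q = Q)

/-- [B4] all conjugates of the eigenprojection commute. -/
def PkgB4 : Prop := ∀ (G : Type u) [Group G] [Finite G] (n : ℕ)
  (U : G →* Matrix (Fin n) (Fin n) ℂ), (∀ g, (U g)ᴴ * U g = 1) → ∀ (x : G) (j₀ : ℕ),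
  Sharp (U x) (Nat.card G) j₀ → ∀ y₁ y₂ : G,
  (U y₁ * proj (U x) (Nat.card G) j₀ * (U y₁)ᴴ) * (U y₂ * proj (U x) (Nat.card G) j₀ * (U y₂)ᴴ) =
  (U y₂ * proj (U x) (Nat.card G) j₀ * (U y₂)ᴴ) * (U y₁ * proj (U x) (Nat.card G) j₀ * (U y₁)ᴴ)

/-- [Bli] the sharp Blichfeldt lemma for simple groups. -/
def PkgBli : Prop := ∀ (G : Type u) [Group G] [Finite G] [IsSimpleGroup G],
  (¬ ∀ a b : G, a * b = b * a) →
  ∀ (n : ℕ) (U : G →* Matrix (Fin n) (Fin n) ℂ), (∀ g, (U g)ᴴ * U g = 1) →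
  (∀ v : Fin n → ℂ, (∀ g, U g *ᵥ v = v) → v = 0) → ∀ x : G, x ≠ 1 → ∀ j₀ : ℕ,
  Sharp (U x) (Nat.card G) j₀ → False

end Cfsg.Agent.Lib.Helper95.BRA
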