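import Mathlib
import Cfsg.Agent.Lib.Helper95.BRA.Defs
import Cfsg.Agent.Lib.Helper80.CharKer

/-!
# Brauer's bound `p < 6 ^ (g₀ - 1)`: assembly from the packages of `Defs`
-/

set_option autoImplicit false

open scoped Matrix ComplexConjugate

namespace Cfsg.Agent.Lib.Helper95.BRA

open Cfsg Cfsg.Agent.Lib.Helper74.Jordan

universe u

lemma lt_six_pow (g : ℕ) (hg : 2 ≤ g) : g < 6 ^ (g - 1) := by
  obtain ⟨k, rfl⟩ : ∃ k, g = k + 2 := ⟨g - 2, by omega⟩
  have h1 : k + 1 < 2 ^ (k + 1) := Nat.lt_pow_self (by norm_num)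
  have h2 : 2 ^ (k + 1) < 6 ^ (k + 1) := Nat.pow_lt_pow_left (by norm_num) (by omega)
  have : k + 2 - 1 = k + 1 := by omega
  rw [this]
  omega

lemma six_pow_ne_prime (p k : ℕ) (hp : p.Prime) : 6 ^ k ≠ p := by
  intro h
  rcases Nat.eq_zero_or_pos k with rfl | hk
  · rw [pow_zero] at h
    exact hp.one_lt.ne h
  · have h2 : 2 ∣ p := by
      rw [← h]
      exact dvd_trans (by norm_num) (dvd_pow_self 6 hk.ne')
    have h3 : 3 ∣ p := by
      rw [← h]
      exact dvd_trans (by norm_num) (dvd_pow_self 6 hk.ne')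
    have e2 := (Nat.prime_dvd_prime_iff_eq Nat.prime_two hp).1 h2
    have e3 := (Nat.prime_dvd_prime_iff_eq Nat.prime_three hp).1 h3
    omega

/-- the character-theoretic half -/
theorem chi_part (c1 : PkgC1.{u}) (c2 : PkgC2.{u}) (c3a : PkgC3a.{u}) (mult : PkgMult.{u})
    (c3c : PkgC3c) (c3d : PkgC3d)
    {G : Type u} [Group G] [Finite G] [IsSimpleGroup G] (p q a b g₀ : ℕ) (hp : p.Prime)
    (hq : q.Prime) (hpq : p ≠ q) (ha : 0 < a) (hg : Nat.card G = p ^ a * q ^ b * g₀)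
    (hcop : ¬ p ∣ g₀) (hcoq : ¬ q ∣ g₀) (hne : Nat.card G ≠ p) :
    (¬ ∀ x y : G, x * y = y * x) ∧ (p ≤ g₀ ∨ ∃ (χ : G → ℂ) (z : G) (m : ℕ → ℕ),
      IsIrrCharacter G χ ∧ χ ≠ (fun _ => 1) ∧ orderOf z = p ∧
      (∀ l : ℕ, χ (z ^ l) = ∑ i ∈ Finset.range p, (m i : ℂ) * rt p ^ (i * l)) ∧
      (∃ i < p, m i ≠ 0) ∧ ((Finset.range p).filter (fun i => m i ≠ 0)).card ≤ g₀) := by
  obtain ⟨hnc, z, hz, K, hpK, hKdvd, hidx⟩ := c1 G p q a b g₀ hp hq hpq ha hg hcop hcoq hne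
  refine ⟨hnc, ?_⟩
  obtain ⟨M, hM, χ, hχ, hχ1, hqn, hblock⟩ := c2 G p q hp hq z hz
  have hχc := Cfsg.Agent.Lib.Helper80.isCharacter_of_isIrrCharacter hχ
  have hone := Cfsg.Agent.Lib.Helper80.char_one_eq_charDegree hχc
  have hnpos := Cfsg.Agent.Lib.Helper80.charDegree_pos hχ
  set n := charDegree χ with hn
  obtain ⟨m, hm⟩ := mult G χ hχc p z hp hz
  have hg0 : 0 < g₀ := by
    rcases Nat.eq_zero_or_pos g₀ with h0 | h0
    · rw [h0, mul_zero] at hg
      exact absurd hg Nat.card_pos.ne'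
    · exact h0
  -- h, D
  set h := Nat.gcd n K with hh
  have hhn : h ∣ n := Nat.gcd_dvd_left n K
  have hhK : h ∣ K := Nat.gcd_dvd_right n K
  have hhpos : 0 < h := Nat.gcd_pos_of_pos_left K hnpos
  have hhg : h ∣ g₀ := by
    have hcopq : Nat.Coprime h (q ^ b) := by
      apply Nat.Coprime.pow_right
      rw [Nat.coprime_comm, hq.coprime_iff_not_dvd]
      exact fun hqh => hqn (dvd_trans hqh hhn)
    exact hcopq.dvd_of_dvd_mul_left (dvd_trans hhK hKdvd)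
  have hhle : h ≤ g₀ := Nat.le_of_dvd hg0 hhg
  obtain ⟨D, hD⟩ := hhn
  have hD' : n = D * h := by rw [hD, mul_comm]
  have hDpos : 0 < D := by
    rcases Nat.eq_zero_or_pos D with h0 | h0
    · rw [h0, zero_mul] at hD'
      omega
    · exact h0
  -- sum of multiplicities
  have hsum : ∑ i ∈ Finset.range p, m i = D * h := by
    have h0 := hm 0
    rw [pow_zero, hone] at h0
    have h1 : (∑ i ∈ Finset.range p, (m i : ℂ) * rt p ^ (i * 0)) =
        ((∑ i ∈ Finset.range p, m i : ℕ) : ℂ) := by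
      rw [Nat.cast_sum]
      exact Finset.sum_congr rfl fun i _ => by rw [mul_zero, pow_zero, mul_one]
    rw [h1] at h0
    rw [← hD']
    exact (Nat.cast_injective h0).symm
  -- integrality
  have hint : ∀ l : ℕ, ¬ p ∣ l →
      IsIntegral ℤ ((∑ i ∈ Finset.range p, (m i : ℂ) * rt p ^ (i * l)) / (D : ℂ)) := by
    intro l hl
    have h1 := c3a G χ hχ (z ^ l)
    rw [hidx l hl, ← hn, ← hh, hm l] at h1
    have hDc : (D : ℂ) ≠ 0 := by exact_mod_cast hDpos.ne'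
    have hhc : (h : ℂ) ≠ 0 := by exact_mod_cast hhpos.ne'
    have e : (∑ i ∈ Finset.range p, (m i : ℂ) * rt p ^ (i * l)) * (h : ℂ) / (n : ℂ) =
        (∑ i ∈ Finset.range p, (m i : ℂ) * rt p ^ (i * l)) / (D : ℂ) := by
      rw [hD']
      push_cast
      field_simp
    rw [e] at h1
    exact h1
  have hdiv := c3c p hp m D hDpos hint
  -- block congruence
  have hK1 : (Subgroup.centralizer ({z} : Set G)).index = K := by
    have := hidx 1 (fun h1 => hp.one_lt.ne' (Nat.dvd_one.1 h1))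
    rwa [pow_one] at this
  have hcong : MemLocalIdeal M ((K : ℂ) -
      (K : ℂ) * (∑ i ∈ Finset.range p, (m i : ℂ) * rt p ^ i) / ((D * h : ℕ) : ℂ)) := by
    have h1 := hblock z
    unfold centralChar at h1
    beta_reduce at h1
    rw [hK1, hone] at h1
    have h2 := hm 1
    rw [pow_one] at h2
    rw [h2] at h1
    simp only [mul_one, div_one] at h1
    rw [← hD']
    exact h1
  rcases c3d p M hM m D h K hDpos hhpos hpK hhK hsum hdiv hcong with h1 | h1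
  · exact Or.inl (le_trans h1 hhle)
  · refine Or.inr ⟨χ, z, m, hχ, hχ1, hz, hm, ?_, le_trans h1 hhle⟩
    by_contra hcon
    push Not at hcon
    have : ∑ i ∈ Finset.range p, m i = 0 :=
      Finset.sum_eq_zero fun i hi => hcon i (Finset.mem_range.1 hi)
    rw [hsum] at this
    have := Nat.mul_pos hDpos hhpos
    omega

/-- **Brauer's bound** from the packages. -/
theorem brauer_six (c1 : PkgC1.{u}) (c2 : PkgC2.{u}) (c3a : PkgC3a.{u}) (mult : PkgMult.{u})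
    (c3c : PkgC3c) (c3d : PkgC3d) (pig : PkgPig) (mat : PkgMat.{u}) (br : PkgBridge.{u})
    (bli : PkgBli.{u})
    {G : Type u} [Group G] [Finite G] [IsSimpleGroup G] (p q a b g₀ : ℕ) (hp : p.Prime)
    (hq : q.Prime) (hpq : p ≠ q) (ha : 0 < a) (hg : Nat.card G = p ^ a * q ^ b * g₀)
    (hcop : ¬ p ∣ g₀) (hcoq : ¬ q ∣ g₀) (hne : Nat.card G ≠ p) : p < 6 ^ (g₀ - 1) := by
  obtain ⟨hnc, hcase⟩ := chi_part c1 c2 c3a mult c3c c3d p q a b g₀ hp hq hpq ha hg hcop hcoq hne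
  rcases hcase with hle | ⟨χ, z, m, hχ, hχ1, hz, hm, ⟨i₁, hi₁, hmi₁⟩, hcard⟩
  · exact lt_of_le_of_lt hle (lt_six_pow g₀ (le_trans hp.two_le hle))
  by_contra hcon
  push Not at hcon
  have hlt : 6 ^ (g₀ - 1) < p := lt_of_le_of_ne hcon (six_pow_ne_prime p _ hp)
  set I := (Finset.range p).filter (fun i => m i ≠ 0) with hI
  have hIp : ∀ i ∈ I, i < p := fun i hi => Finset.mem_range.1 (Finset.mem_filter.1 hi).1
  have hi₁I : i₁ ∈ I := Finset.mem_filter.2 ⟨Finset.mem_range.2 hi₁, hmi₁⟩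
  have hlt' : 6 ^ (I.card - 1) < p :=
    lt_of_le_of_lt (Nat.pow_le_pow_right (by norm_num) (by omega)) hlt
  obtain ⟨d, hd0, hdp, hre⟩ := pig p I hIp i₁ hi₁I hlt'
  obtain ⟨n, U, hUu, hUtr, hfix⟩ := mat G χ hχ hχ1
  -- the element x = z ^ d
  have hx : z ^ d ≠ 1 := by
    intro h1
    have := orderOf_dvd_of_pow_eq_one h1
    rw [hz] at this
    exact absurd (Nat.le_of_dvd hd0 this) (by omega)
  have hpN : p ∣ Nat.card G := by
    rw [← hz]
    exact orderOf_dvd_natCard z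
  have hrt : rt p ^ p = 1 := (rt_prim hp.ne_zero).pow_eq_one
  have hw : ∀ i < p, (rt p ^ (i * d)) ^ Nat.card G = 1 := by
    intro i _
    obtain ⟨c, hc⟩ := hpN
    rw [hc, ← pow_mul, mul_comm (i * d), mul_assoc, pow_mul, hrt, one_pow]
  have hdec : ∀ l : ℕ, (U ((z ^ d) ^ l)).trace =
      ∑ i ∈ Finset.range p, (m i : ℂ) * (rt p ^ (i * d)) ^ l := by
    intro l
    rw [hUtr, ← pow_mul, hm]
    exact Finset.sum_congr rfl fun i _ => by rw [← pow_mul, mul_assoc]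
  obtain ⟨hb1, hb2⟩ := br G n U hUu p m (fun i => rt p ^ (i * d)) (z ^ d) hw hdec
  obtain ⟨j₀, hj₀, hproj₀, hev₀⟩ := hb2 i₁ hi₁ hmi₁
  refine bli G hnc n U hUu hfix (z ^ d) hx j₀ ⟨hj₀, hproj₀, ?_⟩
  intro j hj hprojj
  obtain ⟨i, hi, hmi, hwi⟩ := hb1 j hj hprojj
  rw [← hwi, hev₀]
  exact hre i (Finset.mem_filter.2 ⟨Finset.mem_range.2 hi, hmi⟩)

end Cfsg.Agent.Lib.Helper95.BRA
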