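import Mathlib
import Cfsg.Agent.Lib.Helper95.BRA.Defs

/-!
# BRA: the pigeonhole package `PkgPig`
-/

set_option autoImplicit false

open scoped Matrix ComplexConjugate

namespace Cfsg.Agent.Lib.Helper95.BRA

open Cfsg Cfsg.Agent.Lib.Helper74.Jordan

lemma rt_pow_mul_conj (p : ℕ) (a b : ℕ) :
    rt p ^ a * conj (rt p ^ b) =
      Complex.exp (((2 * Real.pi * ((a : ℝ) - (b : ℝ)) / (p : ℝ) : ℝ) : ℂ) * Complex.I) := by
  have h1 : rt p ^ a = Complex.exp ((a : ℂ) * (2 * Real.pi * Complex.I / p)) := by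
    unfold rt
    rw [← Complex.exp_nat_mul]
  have h2 : rt p ^ b = Complex.exp ((b : ℂ) * (2 * Real.pi * Complex.I / p)) := by
    unfold rt
    rw [← Complex.exp_nat_mul]
  rw [h1, h2, ← Complex.exp_conj, ← Complex.exp_add]
  congr 1
  simp only [map_mul, map_div₀, Complex.conj_I, Complex.conj_ofReal, map_natCast, map_ofNat]
  push_cast
  ring

lemma cos_gt_half {x : ℝ} (hx : |x| < Real.pi / 3) : 1 / 2 < Real.cos x := by
  rw [← Real.cos_abs, ← Real.cos_pi_div_three]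
  apply Real.cos_lt_cos_of_nonneg_of_le_pi_div_two (abs_nonneg _) _ hx
  have := Real.pi_pos
  linarith

theorem pkgPig : PkgPig := by
  intro p I hI i₁ hi₁ hlt
  classical
  have hi₁p : i₁ < p := hI i₁ hi₁
  have hp0 : 0 < p := by omega
  set J := I.erase i₁ with hJ
  have hJcard : J.card = I.card - 1 := Finset.card_erase_of_mem hi₁
  -- the sector map
  let f : ℕ → (↥J → Fin 6) := fun d i =>
    ⟨6 * (((i : ℕ) + p - i₁) * d % p) / p, by
      rw [Nat.div_lt_iff_lt_mul hp0]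
      have := Nat.mod_lt (((i : ℕ) + p - i₁) * d) hp0
      omega⟩
  have hcard : (Finset.univ : Finset (↥J → Fin 6)).card < (Finset.range p).card := by
    rw [Finset.card_univ, Fintype.card_fun, Fintype.card_fin, Fintype.card_coe, hJcard,
      Finset.card_range]
    exact hlt
  obtain ⟨d₁, hd₁, d₂, hd₂, hne, hf⟩ :=
    Finset.exists_ne_map_eq_of_card_lt_of_maps_to hcard (f := f) (fun d _ => Finset.mem_univ _)
  rw [Finset.mem_range] at hd₁ hd₂
  -- symmetric: reduce to d₁ < d₂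
  have key : ∀ d₁ d₂ : ℕ, d₁ < d₂ → d₂ < p → f d₁ = f d₂ →
      ∃ d : ℕ, 0 < d ∧ d < p ∧ ∀ i ∈ I, 1 / 2 < (rt p ^ (i * d) * conj (rt p ^ (i₁ * d))).re := by
    intro d₁ d₂ h12 h2p hf
    refine ⟨d₂ - d₁, by omega, by omega, ?_⟩
    intro i hi
    rw [rt_pow_mul_conj, Complex.exp_ofReal_mul_I_re]
    by_cases hii : i = i₁
    · subst hii
      rw [sub_self, mul_zero, zero_div, Real.cos_zero]
      norm_num
    have hiJ : i ∈ J := Finset.mem_erase.2 ⟨hii, hi⟩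
    have hfi := congrArg (fun g => (g ⟨i, hiJ⟩ : ℕ)) hf
    simp only [f] at hfi
    have hip : i < p := hI i hi
    set e := i + p - i₁ with he
    set r₁ := e * d₁ % p with hr₁
    set r₂ := e * d₂ % p with hr₂
    have hr₁p : r₁ < p := Nat.mod_lt _ hp0
    have hr₂p : r₂ < p := Nat.mod_lt _ hp0
    have hq₁ := Nat.div_add_mod (e * d₁) p
    have hq₂ := Nat.div_add_mod (e * d₂) p
    rw [← hr₁] at hq₁
    rw [← hr₂] at hq₂
    set q₁ := e * d₁ / p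
    set q₂ := e * d₂ / p
    -- |6 r₂ - 6 r₁| < p
    have hs₁ := Nat.div_add_mod (6 * r₁) p
    have hs₂ := Nat.div_add_mod (6 * r₂) p
    have hm₁ := Nat.mod_lt (6 * r₁) hp0
    have hm₂ := Nat.mod_lt (6 * r₂) hp0
    rw [← hfi] at hs₂
    have habs1 : (6 * r₂ : ℤ) - 6 * r₁ < p := by omega
    have habs2 : -(p : ℤ) < (6 * r₂ : ℤ) - 6 * r₁ := by omega
    -- the integer relation
    have hrel : ((i * (d₂ - d₁) : ℕ) : ℤ) - ((i₁ * (d₂ - d₁) : ℕ) : ℤ) =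
        ((r₂ : ℤ) - r₁) + ((q₂ : ℤ) - q₁ - ((d₂ - d₁ : ℕ) : ℤ)) * p := by
      have he' : (e : ℤ) = (i : ℤ) + p - i₁ := by omega
      have hq₁' : (p : ℤ) * q₁ + r₁ = e * d₁ := by exact_mod_cast hq₁
      have hq₂' : (p : ℤ) * q₂ + r₂ = e * d₂ := by exact_mod_cast hq₂
      have hd : ((d₂ - d₁ : ℕ) : ℤ) = (d₂ : ℤ) - d₁ := by omega
      push_cast
      rw [hd]
      rw [he'] at hq₁' hq₂'
      linear_combination hq₁' - hq₂'
    have hrelR : (((i * (d₂ - d₁) : ℕ) : ℝ) - ((i₁ * (d₂ - d₁) : ℕ) : ℝ)) =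
        ((r₂ : ℝ) - r₁) + (((q₂ : ℤ) - q₁ - ((d₂ - d₁ : ℕ) : ℤ) : ℤ) : ℝ) * p := by
      exact_mod_cast hrel
    have hpR : (0 : ℝ) < p := by exact_mod_cast hp0
    have hθ : 2 * Real.pi * (((i * (d₂ - d₁) : ℕ) : ℝ) - ((i₁ * (d₂ - d₁) : ℕ) : ℝ)) / (p : ℝ) =
        2 * Real.pi * ((r₂ : ℝ) - r₁) / p +
          (((q₂ : ℤ) - q₁ - ((d₂ - d₁ : ℕ) : ℤ) : ℤ) : ℝ) * (2 * Real.pi) := by
      rw [hrelR]
      field_simp
    rw [hθ, Real.cos_add_int_mul_two_pi]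
    apply cos_gt_half
    have h1 : (6 * (r₂ : ℝ) - 6 * r₁) < p := by exact_mod_cast habs1
    have h2 : -(p : ℝ) < (6 * (r₂ : ℝ) - 6 * r₁) := by exact_mod_cast habs2
    have hpi := Real.pi_pos
    rw [abs_lt]
    constructor
    · rw [lt_div_iff₀ hpR]
      nlinarith
    · rw [div_lt_iff₀ hpR]
      nlinarith
  rcases Nat.lt_or_gt_of_ne hne with h | h
  · exact key d₁ d₂ h hd₂ hf
  · exact key d₂ d₁ h hd₁ hf.symm

end Cfsg.Agent.Lib.Helper95.BRA
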